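import Cfsg.Agent.Bimonster.Split

/-!
# Perfect central extensions of the presented group of the Monster are trivial

`PRel x`: the relations of the presentation of the Monster on the nodes of `Y553`.  By `Bimonster/Split.lean` the
kernel of a perfect central extension of the presented group has exponent three; the obstruction is the value `s` of
the spider word in the extension.  If some element exchanges the first two arms of `Y222`, then `s = s⁻¹`, so the
kernel is trivial (`eq_one_of_swap`).
-/

set_option autoImplicit false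

namespace Cfsg.Agent.H862.PMSplit

open Cfsg.Agent.Bimonster Cfsg.Agent.Bimonster.Tits

universe u

/-- `m` exchanges the first two arms of `Y222` -/
def Swaps {P : Type*} [Group P] (x : ℕ → P) (m : P) : Prop := ∀ i ∈ spW, m * x i * m⁻¹ = x (swp i)

variable {E P : Type*} [Group E] [Group P] {π : E →* P}

theorem ev_mul_cen {y k : ℕ → E} {w : List ℕ} (hk : ∀ i ∈ w, ∀ g, k i * g = g * k i) :
    ev (fun i => k i * y i) w = ev k w * ev y w := by
  induction w with
  | nil => simp
  | cons i w ih =>
    have h1 := ih fun j hj => hk j (by simp [hj])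
    have h2 := hk i (by simp)
    rw [ev_cons, h1, ev_cons, ev_cons]
    have h3 : ∀ g, ev k w * g = g * ev k w := by
      have hk' : ∀ j ∈ w, ∀ g, k j * g = g * k j := fun j hj => hk j (by simp [hj])
      clear h1 ih hk
      intro g
      induction w with
      | nil => simp
      | cons j w ih =>
        rw [ev_cons, mul_assoc, ih (fun l hl => hk' l (by simp [hl])), ← mul_assoc, hk' j (by simp), mul_assoc]
    calc k i * y i * (ev k w * ev y w) = k i * (y i * ev k w) * ev y w := by simp only [mul_assoc]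
      _ = k i * (ev k w * y i) * ev y w := by rw [h3]
      _ = _ := by simp only [mul_assoc]

theorem ev_cen_sq {k : ℕ → E} {w : List ℕ} (hk : ∀ i ∈ w, ∀ g, k i * g = g * k i)
    (h2 : ∀ i ∈ w, k i * k i = 1) : (∀ g, ev k w * g = g * ev k w) ∧ ev k w * ev k w = 1 := by
  induction w with
  | nil => simp
  | cons i w ih =>
    obtain ⟨h3, h4⟩ := ih (fun j hj => hk j (by simp [hj])) (fun j hj => h2 j (by simp [hj]))
    have h5 := hk i (by simp)
    have h6 := h2 i (by simp)
    refine ⟨fun g => ?_, ?_⟩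
    · rw [ev_cons, mul_assoc, h3, ← mul_assoc, h5, mul_assoc]
    · rw [ev_cons]
      calc k i * ev k w * (k i * ev k w) = k i * (ev k w * k i) * ev k w := by simp only [mul_assoc]
        _ = k i * (k i * ev k w) * ev k w := by rw [h3]
        _ = (k i * k i) * (ev k w * ev k w) := by simp only [mul_assoc]
        _ = 1 := by rw [h6, h4, mul_one]

/-- The value of the spider relation in a central extension is an involution if the arms can be exchanged. -/
theorem spider_sq (h : Ext π) {x : ℕ → P} {y : ℕ → E} (hy : ∀ i, π (y i) = x i) (hc : CoxRel 14 y)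
    (hs : ev x spW ^ 10 = 1) {m : P} (hm : Swaps x m) : ev y spW ^ 10 * ev y spW ^ 10 = 1 := by
  set s := ev y spW ^ 10 with hsdef
  have hxy : (fun i => π (y i)) = x := funext hy
  have hπs : π s = 1 := by rw [hsdef, map_pow, map_ev, hxy, hs]
  have hsc := h.cen s hπs
  have hcj : ∀ g : E, g * s * g⁻¹ = s := fun g => by rw [← hsc g]; group
  obtain ⟨M, rfl⟩ := h.surj m
  -- the factors
  have hk : ∀ i : ℕ, ∃ k : E, (i ∈ spW → π k = 1 ∧ M * y i * M⁻¹ = k * y (swp i)) := by
    intro i
    by_cases hi : i ∈ spW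
    · obtain ⟨k, hk, hk2⟩ := h.eq_mul (a := M * y i * M⁻¹) (b := y (swp i)) (by
        rw [map_mul, map_mul, map_inv, hy, hy]; exact hm i hi)
      exact ⟨k, fun _ => ⟨hk, hk2⟩⟩
    · exact ⟨1, fun h => absurd h hi⟩
  choose k hk using hk
  have hlt : ∀ i ∈ spW, i < 14 ∧ swp i < 14 := by decide
  have hkc : ∀ i ∈ spW, ∀ g, k i * g = g * k i := fun i hi => h.cen _ (hk i hi).1
  have hk2 : ∀ i ∈ spW, k i * k i = 1 := by
    intro i hi
    have h1 := (hk i hi).2
    have h2 := hc.sq i (hlt i hi).1
    have h3 := hc.sq (swp i) (hlt i hi).2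
    have h4 : M * y i * M⁻¹ * (M * y i * M⁻¹) = 1 := by
      calc M * y i * M⁻¹ * (M * y i * M⁻¹) = M * (y i * y i) * M⁻¹ := by group
        _ = 1 := by rw [h2]; group
    rw [h1] at h4
    calc k i * k i = k i * k i * (y (swp i) * y (swp i)) := by rw [h3, mul_one]
      _ = k i * (k i * y (swp i)) * y (swp i) := by simp only [mul_assoc]
      _ = k i * (y (swp i) * k i) * y (swp i) := by rw [hkc i hi (y (swp i))]
      _ = k i * y (swp i) * (k i * y (swp i)) := by simp only [mul_assoc]
      _ = 1 := h4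
  obtain ⟨hKc, hK2⟩ := ev_cen_sq hkc hk2
  have e1 : M * ev y spW * M⁻¹ = ev k spW * ev (fun i => y (swp i)) spW := by
    rw [← ev_mul_cen hkc]
    have : MulAut.conj M (ev y spW) = ev (fun i => MulAut.conj M (y i)) spW :=
      map_ev (MulAut.conj M).toMonoidHom y spW
    rw [MulAut.conj_apply] at this
    rw [this]
    apply ev_congr
    intro i hi
    rw [MulAut.conj_apply]
    exact (hk i hi).2
  have e2 : M * s * M⁻¹ = ev y (spW.map swp) ^ 10 := by
    rw [hsdef, ← conj_pow, e1, (show Commute (ev k spW) (ev (fun i => y (swp i)) spW) from hKc _).mul_pow,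
      ev_swp, show (10 : ℕ) = 2 * 5 by norm_num, pow_mul (ev k spW), pow_two, hK2, one_pow, one_mul]
  have e3 : ev y spW' ^ 10 = s⁻¹ := by
    have h1 := eq_of_run hc.valid sq_ok
    rw [one_pow, ev_append, ev_append, ev_append, ev_rep, ev_rep,
      ev_reverse (sq_of_lt hc (by decide)), ← hsdef, hcj] at h1
    exact (inv_eq_of_mul_eq_one_right h1).symm
  have e4 : ev y (spW.map swp) ^ 10 = s⁻¹ := by
    have f1 : ev y (spW.map swp) = ev y [0, 6, 7, 0, 1, 2] * ev y [0, 11, 12] := by rw [← ev_append]; rfl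
    have f2 : ev y spW' = ev y [0, 11, 12] * ev y [0, 6, 7, 0, 1, 2] := by rw [← ev_append]; rfl
    have f3 : ev y (spW.map swp) = (ev y [0, 11, 12])⁻¹ * ev y spW' * ((ev y [0, 11, 12])⁻¹)⁻¹ := by
      rw [f1, f2]; group
    rw [f3, conj_pow, e3]
    have := hcj (ev y [0, 11, 12])⁻¹
    calc (ev y [0, 11, 12])⁻¹ * s⁻¹ * ((ev y [0, 11, 12])⁻¹)⁻¹ =
        ((ev y [0, 11, 12])⁻¹ * s * ((ev y [0, 11, 12])⁻¹)⁻¹)⁻¹ := by group
      _ = s⁻¹ := by rw [this]
  rw [hcj, e4] at e2
  nth_rewrite 1 [e2]
  exact inv_mul_cancel s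

/-- **A perfect central extension of the presented group is trivial, if the arms can be exchanged.** -/
theorem eq_one_of_swap (hF : FiFacts) {E : Type u} {P : Type*} [Group E] [Group P] {π : E →* P}
    (h : Ext π) (hperf : commutator E = ⊤) {x : ℕ → P} (hx : PRel x)
    (hgen : Subgroup.closure (nodes 14 x) = ⊤) (hU : Univ.{u} x) {m : P} (hm : Swaps x m) :
    ∀ c, π c = 1 → c = 1 := by
  obtain ⟨y, hy, hcox, h3⟩ := h.exists_cox_lift hx.cox hx.f3a
  have hs2 := spider_sq h hy hcox hx.spider hm
  set s := ev y spW ^ 10 with hs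
  have hxy : (fun i => π (y i)) = x := funext hy
  have hπs : π s = 1 := by rw [hs, map_pow, map_ev, hxy, hx.spider]
  have hsc := h.cen s hπs
  have hs3 : s * s * s = 1 := by
    obtain ⟨g, k, hgk⟩ := sp_good hcox
    rw [← hs] at hgk
    have e1 : ∀ g : E, g * s * g⁻¹ = s := fun g => by rw [← hsc g]; group
    rwa [e1, e1] at hgk
  have hs1 : s = 1 := by rwa [hs2, one_mul] at hs3
  have hyP : PRel y := h.prel_of_spider hF hx hy hcox h3 (by rw [← hs]; exact hs1)
  intro c hc
  exact h.trivial_of_prel hperf hgen hU hy hyP hc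

end Cfsg.Agent.H862.PMSplit
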