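import Cfsg.Agent.MonsterN.LitPar
import Cfsg.Agent.H862.PMSplit

/-!
# An element of the Monster exchanging two arms of `Y333`

`exists_swap`: in the model of the Monster there are nodes `v` with `PRel v` and an element exchanging the first two
arms of `Y333`; `exists_swap_PM`: the same for the presented group `PM`.
-/

set_option autoImplicit false

open Subgroup

namespace Cfsg.Agent.H862.ArmSwap

open Cfsg Cfsg.Lie Cfsg.Agent.Bimonster Cfsg.Agent.BabyU Cfsg.Agent.TwoESix.Cover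
open Cfsg.Agent.MonsterX.KSide Cfsg.Agent.MonsterX.KLift Cfsg.Agent.MonsterX.KModel
open Cfsg.Agent.MonsterX.Model Cfsg.Agent.MonsterX.MainPack Cfsg.Agent.MonsterX.MainSimple
open Cfsg.Agent.MonsterX.MainBasic Cfsg.Agent.MonsterU.Assembly Cfsg.Agent.MonsterN.Lit
open Cfsg.Agent.MonsterN.LitInst Cfsg.Agent.MonsterU.Lam2 Cfsg.Agent.MonsterU.TwoCls
open Cfsg.Agent.MonsterN Cfsg.Agent.BabyU.OutFree Cfsg.Agent.TwoESix.Cox10

variable {V P W : Type} [AddCommGroup V] [Module ℚ V] [Group P] [AddCommGroup W] [Module ℚ W]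
  {D : MData V} {M : KS ↥D.G V P W} {x₀ : P} {θ : leechLattice → P} {K₀ : Type} [Group K₀]

/-- **An element of the model of the Monster exchanging the first two arms.** -/
theorem exists_swap (A : All D K₀) (H : Link D M x₀) (L : Lift M θ) {τ : D.G} {y' : P}
    (T : Cfsg.Agent.MonsterU.InvTwo.TauHyp M θ ⊤ τ y') {y : ℕ → D.G} (hP : PRel y) (hne : y 0 ≠ y 1)
    (hy : ∃ g : D.G, g * tG A.hG A.hR * g⁻¹ = y 10) :
    ∃ (v : ℕ → D.G) (m : D.G), PRel v ∧ v 10 ≠ 1 ∧ ∀ i, m * v (nl i) * m⁻¹ = v (nl (pAB i)) := by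
  have hfin : Finite D.G := G_finite A.hO
  have hB : Cfsg.IsB Cfsg.Spor.BabyMonster := Cfsg.Agent.S1704.result
  obtain ⟨⟨h1, h2, h3⟩, h43⟩ := ModelB.fieldsKS A H L hP hne hy hB H.x₀_mem
  obtain ⟨f₁, f₂, f₃, f₄, Fc, hcz, hcd, p, hp, hp2, hp2'⟩ := FusInst.exists_facts A H L T H.x₀_mem
  have hzm : M.z ∈ BB M x₀ := mem_centralizer_singleton_iff.2 (by
    show M.ι M.zc * M.ι x₀ = M.ι x₀ * M.ι M.zc
    rw [← map_mul, ← map_mul, M.zc_comm])
  have hE : Emb (BB M x₀).subtype M.z (tb M x₀) f₁ f₂ f₃ :=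
    ⟨Subtype.val_injective, nineteen H A, ((BB M x₀).subtype.map_isConj (hcz hzm)).symm, hcd⟩
  -- the group `²E₆(2)`
  let K := GaloisField 2 2
  let _i : Fintype K := Fintype.ofFinite K
  have hK : Fintype.card K = 4 := by
    rw [← Nat.card_eq_fintype_card]
    exact GaloisField.card 2 2 (by norm_num)
  have hsE := EInst.isSimple K hK
  obtain ⟨e0, r, he0, hgen, hr, -, hconj⟩ := TwoESix.GoodInst.exists_good K hK
  have hR : ∀ i, e0 i ∈ rootClass K := fun i => by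
    obtain ⟨g, hg⟩ := hconj i
    exact ⟨g, r, hr, hg⟩
  have hHB : Finite HB := Cfsg.Agent.BM.HBFinal.finite_HB
  have hcard := Cfsg.Agent.BM.HBFinal.hcard K hK
  have N : Nodes (tb M x₀) (rootClass K) :=
    NodesLit.nodes he0 hgen hcard (Cfsg.Agent.BM.HBFinal.card_E K hK) hR h1 h2 h3 Fc hE
  have EF : EFacts (F := K) (by rw [hK]; norm_num) (twistedE6 K 2) (rootClass K) := by
    obtain ⟨yB, h, π, -, -, DK⟩ := N
    exact EInst.eFacts K hK _ hHB hcard DK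
  obtain ⟨yB, h, π, h10, hgen', DK⟩ := N
  obtain ⟨M', _, hcov⟩ := EF.cov
  have hc5 := conj_five Fc hE EF.nineteen h10 DK
  have h19 : 19 ∣ Nat.card (centralizer ({f₁} : Set (BB M x₀))) := by
    rw [card_centralizer_conj hc5, DK.card_centralizer_five fun x => by rw [h10]; exact Fc.cen x]
    exact Dvd.dvd.mul_left EF.nineteen 4
  have hconj' : IsConj ((BB M x₀).subtype (tb M x₀)) ((BB M x₀).subtype f₁) := by
    have e1 : (BB M x₀).subtype f₁ = M.ι p := hp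
    rw [e1]
    exact (FusInst.hyp A H L T H.x₀_mem).conj_short hp2
  have hφr : ∀ x : D.G, x ∈ (BB M x₀).subtype.range ↔
      x * (BB M x₀).subtype (tb M x₀) = (BB M x₀).subtype (tb M x₀) * x := by
    intro x
    rw [Subgroup.range_subtype]
    exact mem_centralizer_singleton_iff
  obtain ⟨n, hn1, hn2⟩ := MonsterN.exists_swap Fc
    (hdist_of hE.inj Fc.cen hE.nineteen hE.conj_z hE.conj_d h19) Subtype.val_injective hφr hconj'
  obtain ⟨c, hc⟩ := isConj_iff.1 hc5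
  set φ := (BB M x₀).subtype with hφdef
  have hφ : Function.Injective φ := Subtype.val_injective
  have hcτ : (φ c)⁻¹ * φ (tb M x₀) * φ c = φ (tb M x₀) := by
    have : φ (tb M x₀) * φ c = φ c * φ (tb M x₀) := by rw [← map_mul, ← map_mul, Fc.cen]
    calc (φ c)⁻¹ * φ (tb M x₀) * φ c = (φ c)⁻¹ * (φ (tb M x₀) * φ c) := by group
      _ = _ := by rw [this]; group
  have hcτ' : φ c * φ (tb M x₀) * (φ c)⁻¹ = φ (tb M x₀) := by
    calc φ c * φ (tb M x₀) * (φ c)⁻¹ = φ c * ((φ c)⁻¹ * φ (tb M x₀) * φ c) * (φ c)⁻¹ := by rw [hcτ]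
      _ = φ (tb M x₀) := by group
  have h5' : φ (yB 5) = φ c * φ f₁ * (φ c)⁻¹ := by rw [← hc, map_mul, map_mul, map_inv]
  have hr' : ∀ x : D.G, x * φ (yB 10) = φ (yB 10) * x → x ∈ φ.range := fun x hx => by
    rw [h10] at hx
    exact (hφr x).2 hx
  have DG := DK.transport hφ hr'
  have m1 : φ c * n * (φ c)⁻¹ * φ (yB 10) * (φ c * n * (φ c)⁻¹)⁻¹ = φ (yB 5) := by
    rw [h10, h5', ← hn1]
    calc φ c * n * (φ c)⁻¹ * φ (tb M x₀) * (φ c * n * (φ c)⁻¹)⁻¹ =
        φ c * n * ((φ c)⁻¹ * φ (tb M x₀) * φ c) * n⁻¹ * (φ c)⁻¹ := by group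
      _ = _ := by rw [hcτ]; group
  have m2 : φ c * n * (φ c)⁻¹ * φ (yB 5) * (φ c * n * (φ c)⁻¹)⁻¹ = φ (yB 10) := by
    rw [h10, h5']
    calc φ c * n * (φ c)⁻¹ * (φ c * φ f₁ * (φ c)⁻¹) * (φ c * n * (φ c)⁻¹)⁻¹ =
        φ c * (n * φ f₁ * n⁻¹) * (φ c)⁻¹ := by group
      _ = φ (tb M x₀) := by rw [hn2, hcτ']
  obtain ⟨α, hα⟩ := DG.exists_auto m1 m2
  have hfinHB := EF.fin
  obtain ⟨m, -, -, hm, hPv⟩ := exists_prel hcov EF.card EF.nc EF.hyp EF.root DG m1 m2 (fun k hk => by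
    rw [← hα]; exact EF.aut α _ hk)
  refine ⟨_, m, hPv, ?_, ?_⟩
  · rw [if_neg (by norm_num)]
    exact fun h1 => DK.ne2 (hφ (by rw [map_one]; exact h1))
  · have hnl : ∀ i : Fin 10, nl i ≠ 9 := by decide
    intro i
    rw [if_neg (hnl i), if_neg (hnl _)]
    exact hm i

/-- the relation `Swaps` from the exchange of the arms -/
theorem swaps_of {G : Type*} [Group G] {v : ℕ → G} {m : G} (hm : ∀ i, m * v (nl i) * m⁻¹ = v (nl (pAB i))) :
    PMSplit.Swaps v m := by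
  have key : ∀ i ∈ spW, ∃ j : Fin 10, nl j = i ∧ nl (pAB j) = swp i := by decide
  intro i hi
  obtain ⟨j, h1, h2⟩ := key i hi
  have := hm j
  rwa [h1, h2] at this

/-- **An element of the presented group exchanging the first two arms.** -/
theorem exists_swap_PM (A : All D K₀) (H : Link D M x₀) (L : Lift M θ) {τ : D.G} {y' : P}
    (T : Cfsg.Agent.MonsterU.InvTwo.TauHyp M θ ⊤ τ y') {y : ℕ → D.G} (hP : PRel y) (hne : y 0 ≠ y 1)
    (hy : ∃ g : D.G, g * tG A.hG A.hR * g⁻¹ = y 10) (ePM : Nonempty (PM ≃* D.G)) :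
    ∃ m : PM, ∀ i, m * xM (nl i) * m⁻¹ = xM (nl (pAB i)) := by
  obtain ⟨v, m, hv, hv1, hm⟩ := exists_swap A H L T hP hne hy
  obtain ⟨σ, hσ⟩ := xM_univ D.G v hv
  obtain ⟨e⟩ := ePM
  have hfin : Finite D.G := G_finite A.hO
  have hsM : IsSimpleGroup D.G := A.isM.1
  have hsPM : IsSimpleGroup PM := LitPar.isSimple_of_equiv e hsM
  have hfinPM : Finite PM := Finite.of_equiv _ e.symm.toEquiv
  have hker : σ.ker = ⊥ := by
    rcases hsPM.eq_bot_or_eq_top_of_normal σ.ker inferInstance with h | h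
    · exact h
    · exfalso
      apply hv1
      rw [← hσ 10 (by norm_num), ← MonoidHom.mem_ker, h]
      exact Subgroup.mem_top _
  have hinj : Function.Injective σ := (MonoidHom.ker_eq_bot_iff σ).1 hker
  have hbij : Function.Bijective σ :=
    (Nat.bijective_iff_injective_and_card (f := σ)).mpr ⟨hinj, Nat.card_congr e.toEquiv⟩
  obtain ⟨m0, rfl⟩ := hbij.2 m
  refine ⟨m0, fun i => hinj ?_⟩
  have hlt : ∀ i : Fin 10, nl i < 14 := by decide
  rw [map_mul, map_mul, map_inv, hσ _ (hlt _), hσ _ (hlt _)]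
  exact hm i

end Cfsg.Agent.H862.ArmSwap
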