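import Cfsg.Agent.H862.PMSplit
import Cfsg.Agent.Bimonster.Close

/-!
# The structure of the Bimonster

`Setup t x φ sgn` (`Bimonster/Struct.lean`): `G` is generated by nodes `t` with the relations of the Bimonster, `P` is
the group presented by the relations of the Monster.  If `φ` is injective, `P` has trivial centre and the perfect
central extensions of `P` are trivial (`eq_one_of_swap`), then `commutator G` has index 2 and is isomorphic to
`P × P`, and the centre of `G` is trivial.
-/

set_option autoImplicit false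

namespace Cfsg.Agent.H862.BiWr

open Cfsg.Agent.Bimonster Cfsg.Agent.Bimonster.Tits Cfsg.Agent.Bimonster.Setup

variable {G P : Type} [Group G] [Group P] {t : ℕ → G} {x : ℕ → P} {φ : P →* G} {sgn : G →* ℤˣ}

theorem index_commutator (h : Setup t x φ sgn) : (commutator G).index = 2 := by
  have hk : sgn.ker = commutator G := by
    apply le_antisymm
    · intro g hg
      rw [h.commutator_eq]
      exact h.mem_DD_of_sgn hg
    · exact Abelianization.commutator_subset_ker sgn
  rw [← hk, Subgroup.index_ker]
  have hr : sgn.range = ⊤ := by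
    rw [eq_top_iff]
    intro u _
    rcases Int.units_eq_one_or u with rfl | rfl
    · exact Subgroup.one_mem _
    · exact ⟨t 15, h.hsgn 15 (by norm_num)⟩
  rw [hr, Subgroup.card_top]
  simp

/-- The kernel of the projection of the first factor is trivial. -/
theorem pr_eq_one (h : Setup t x φ sgn) (hF : FiFacts) (hφ : Function.Injective φ) (hU : Univ.{0} x)
    {m : P} (hm : PMSplit.Swaps x m) {a : A0 t x φ} (ha : h.pr hφ a = 1) : a = 1 :=
  PMSplit.eq_one_of_swap hF (h.pr_ext hφ) h.A0_perfect h.xrel h.xgen hU hm a ha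

theorem inf_eq_one (h : Setup t x φ sgn) (hF : FiFacts) (hφ : Function.Injective φ) (hU : Univ.{0} x)
    {m : P} (hm : PMSplit.Swaps x m) (hZ : ∀ c : P, (∀ p, c * p = p * c) → c = 1) {c : G}
    (hA : c ∈ A0 t x φ) (hB : c ∈ B0 t x φ) : c = 1 := by
  have h1 : h.pr hφ ⟨c, hA⟩ = 1 := by
    apply hZ
    intro p
    obtain ⟨a, rfl⟩ := (h.pr_ext hφ).surj p
    rw [← map_mul, ← map_mul]
    congr 1
    exact Subtype.ext (h.AB_comm a.2 hB).symm
  exact congrArg Subtype.val (pr_eq_one h hF hφ hU hm h1)

theorem center_eq (h : Setup t x φ sgn) (hF : FiFacts) (hφ : Function.Injective φ) (hU : Univ.{0} x)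
    (hZ : ∀ c : P, (∀ p, c * p = p * c) → c = 1) (hP : Nontrivial P) : Subgroup.center G = ⊥ := by
  rw [Subgroup.eq_bot_iff_forall]
  intro c hc
  rw [Subgroup.mem_center_iff] at hc
  have hce := centralizer_eq h hF hφ hU hZ
  -- the part in the commutator subgroup
  have key : ∀ d : G, (∀ p, d * φ p = φ p * d) → t 15 * d = d * t 15 → d ∈ h.DD → d = 1 := by
    intro d hd1 hd2 hd3
    have h1 : d ∈ Subgroup.centralizer {t 15} ⊓ commutator G := by
      have h0 : d ∈ Subgroup.centralizer {t 15} := by
        rw [Subgroup.mem_centralizer_iff]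
        rintro _ rfl
        exact hd2
      exact ⟨h0, by rw [h.commutator_eq]; exact hd3⟩
    rw [hce] at h1
    obtain ⟨p, rfl⟩ := h1
    have h2 : p = 1 := by
      apply hZ
      intro q
      apply hφ
      rw [map_mul, map_mul]
      exact hd1 q
    rw [h2, map_one]
  rcases h.mem_or c with h1 | h1
  · exact key c (fun p => (hc _).symm) (hc _) h1
  · exfalso
    have h2 : t 15 * c = 1 := by
      apply key _ _ _ h1
      · intro p
        rw [mul_assoc, ← hc (φ p), ← mul_assoc, h.f_phi, mul_assoc]
      · rw [mul_assoc, ← hc (t 15)]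
    have h3 : c = t 15 := by
      have := eq_inv_of_mul_eq_one_right h2
      rwa [Square.inv_of_sq h.ff] at this
    subst h3
    -- all nodes are equal
    have e1 : t 14 = t 15 := by
      have h4 := h.efe
      rw [hc (t 14), mul_assoc, h.ee, mul_one] at h4
      rw [mul_assoc, hc (t 14), ← mul_assoc, h.ff, one_mul] at h4
      exact h4.symm
    have e2 : t 13 = t 14 := by
      have h4 := h.ede
      have h5 := hc (t 13)
      rw [← e1] at h5
      rw [← h5, mul_assoc, h.ee, mul_one] at h4
      have h6 : t 13 * t 13 = 1 := h.rel.cox.sq 13 (by norm_num)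
      rw [h5, mul_assoc, h6, mul_one] at h4
      exact h4
    have e3 : φ (x 13) = 1 := by rw [h.hphi 13 (by norm_num), e2, e1, h.ff]
    have e4 : x 13 = 1 := hφ (by rw [e3, map_one])
    -- all `x i` are trivial
    have hbr : ∀ i j, i < 14 → j < 14 → adjB i j = true → x i = 1 → x j = 1 := by
      intro i j hi hj hij hx
      have h7 := h.xrel.cox.br i hi j hj hij
      have h8 := h.xrel.cox.sq j hj
      simp only [hx, one_mul, mul_one] at h7
      rw [h8] at h7
      exact h7
    have f12 := hbr 13 12 (by norm_num) (by norm_num) (by decide) e4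
    have f11 := hbr 12 11 (by norm_num) (by norm_num) (by decide) f12
    have f0 := hbr 11 0 (by norm_num) (by norm_num) (by decide) f11
    have f1 := hbr 0 1 (by norm_num) (by norm_num) (by decide) f0
    have f2 := hbr 1 2 (by norm_num) (by norm_num) (by decide) f1
    have f3 := hbr 2 3 (by norm_num) (by norm_num) (by decide) f2
    have f4 := hbr 3 4 (by norm_num) (by norm_num) (by decide) f3
    have f5 := hbr 4 5 (by norm_num) (by norm_num) (by decide) f4
    have f6 := hbr 0 6 (by norm_num) (by norm_num) (by decide) f0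
    have f7 := hbr 6 7 (by norm_num) (by norm_num) (by decide) f6
    have f8 := hbr 7 8 (by norm_num) (by norm_num) (by decide) f7
    have f9 := hbr 8 9 (by norm_num) (by norm_num) (by decide) f8
    have f10 := hbr 9 10 (by norm_num) (by norm_num) (by decide) f9
    have htop : (⊤ : Subgroup P) ≤ ⊥ := by
      rw [← h.xgen, Subgroup.closure_le]
      rintro _ ⟨i, hi, rfl⟩
      have : x i = 1 := by interval_cases i <;> assumption
      rw [this]
      exact Subgroup.one_mem _
    obtain ⟨p, hp⟩ := exists_ne (1 : P)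
    exact hp (Subgroup.mem_bot.1 (htop (Subgroup.mem_top p)))

theorem map_A0 (h : Setup t x φ sgn) : (A0 t x φ).map (MulAut.conj (t 15)).toMonoidHom = B0 t x φ := by
  have hi := Square.inv_of_sq h.ff
  ext g
  constructor
  · rintro ⟨a, ha, rfl⟩
    have := h.f_A0 ha
    show t 15 * a * (t 15)⁻¹ ∈ _
    rwa [hi]
  · intro hg
    refine ⟨t 15 * g * t 15, h.f_B0 hg, ?_⟩
    show t 15 * (t 15 * g * t 15) * (t 15)⁻¹ = g
    rw [hi]
    calc t 15 * (t 15 * g * t 15) * t 15 = (t 15 * t 15) * g * (t 15 * t 15) := by simp only [mul_assoc]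
      _ = g := by rw [h.ff, one_mul, mul_one]

/-- **The commutator subgroup is the direct product of two copies of `P`.** -/
theorem commutator_equiv (h : Setup t x φ sgn) (hF : FiFacts) (hφ : Function.Injective φ) (hU : Univ.{0} x)
    {m : P} (hm : PMSplit.Swaps x m) (hZ : ∀ c : P, (∀ p, c * p = p * c) → c = 1) :
    Nonempty (↥(commutator G) ≃* P × P) := by
  -- the first factor
  have hinj : Function.Injective (h.pr hφ) := by
    rw [injective_iff_map_eq_one]
    intro a ha
    exact pr_eq_one h hF hφ hU hm ha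
  let e1 : A0 t x φ ≃* P := MulEquiv.ofBijective (h.pr hφ) ⟨hinj, (h.pr_ext hφ).surj⟩
  have e2 : A0 t x φ ≃* B0 t x φ :=
    ((A0 t x φ).equivMapOfInjective _ (MulAut.conj (t 15)).injective).trans (MulEquiv.subgroupCongr (map_A0 h))
  let f : A0 t x φ × B0 t x φ →* G :=
    MonoidHom.noncommCoprod (A0 t x φ).subtype (B0 t x φ).subtype fun a b => h.AB_comm a.2 b.2
  have hf : ∀ a b, f (a, b) = a.1 * b.1 := fun a b => rfl
  have hfinj : Function.Injective f := by
    rw [injective_iff_map_eq_one]
    rintro ⟨a, b⟩ hab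
    rw [hf] at hab
    have h1 : a.1 = b.1⁻¹ := eq_inv_of_mul_eq_one_left hab
    have h2 : a.1 = 1 := inf_eq_one h hF hφ hU hm hZ a.2 (by rw [h1]; exact Subgroup.inv_mem _ b.2)
    rw [h2, one_mul] at hab
    exact Prod.ext (Subtype.ext h2) (Subtype.ext hab)
  have hrange : f.range = commutator G := by
    rw [h.commutator_eq]
    ext g
    constructor
    · rintro ⟨⟨a, b⟩, rfl⟩
      exact ⟨a.1, a.2, b.1, b.2, rfl⟩
    · rintro ⟨a, ha, b, hb, rfl⟩
      exact ⟨(⟨a, ha⟩, ⟨b, hb⟩), rfl⟩
  have e3 : ↥(commutator G) ≃* A0 t x φ × B0 t x φ :=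
    (MulEquiv.subgroupCongr hrange.symm).trans (MonoidHom.ofInjective hfinj).symm
  exact ⟨e3.trans (e1.prodCongr (e2.symm.trans e1))⟩

end Cfsg.Agent.H862.BiWr
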