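import Cfsg.Agent.H862.ArmSwap
import Cfsg.Agent.MonsterN.LitFin
import Cfsg.Agent.MonsterP.Equiv

/-!
# Facts on the presented group of the Monster

* `exists_swaps` : an element of `PM` exchanges the first two arms of `Y333`;
* `zrel` : the relations for the element of order three;
* `center_eq_one` : the centre is trivial;
* `eq_one` : **every perfect central extension of `PM` is trivial** (any kernel, any universe).
-/

set_option autoImplicit false

namespace Cfsg.Agent.H862.PMFacts

open Cfsg Cfsg.Agent Cfsg.Agent.Bimonster Cfsg.Agent.Bimonster.Tits Cfsg.Agent.MonsterX Cfsg.Agent.MonsterP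

universe u

/-- An element exchanging the first two arms. -/
theorem exists_arms : ∃ m : PM, ∀ i, m * xM (MonsterN.nl i) * m⁻¹ = xM (MonsterN.nl (TwoESix.Cox10.pAB i)) :=
  ArmSwap.exists_swap_PM MonsterN.LitFin.all KDone.lnk KDone.lft
    (MonsterU.TauInst.tauHyp (MonsterU.Final.cent InstanceFinal.mOrbit Instance.mTrans))
    (NodesGrp.prel MonsterN.LitFin.H) (NodesNe.ne MonsterN.LitFin.H) MonsterN.LitFin.conj_ten Equiv.equivPM

theorem exists_swaps : ∃ m : PM, PMSplit.Swaps xM m := by
  obtain ⟨m, hm⟩ := exists_arms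
  exact ⟨m, ArmSwap.swaps_of hm⟩

theorem center_eq_one (c : PM) (hc : ∀ p, c * p = p * c) : c = 1 := by
  obtain ⟨e⟩ := Equiv.equivPM
  have h1 : ∀ q : ↥InstData.M.G, e c * q = q * e c := by
    intro q
    obtain ⟨p, rfl⟩ := e.surjective q
    rw [← map_mul, ← map_mul, hc]
  have h2 : e c = 1 := isM_center EquivOf.isM_model (e c) h1
  apply e.injective
  rw [h2, map_one]

theorem zrel_of {G : Type} [Group G] {v : ℕ → G} (e : PM ≃* G) (he : ∀ i < 14, e (xM i) = v i) (hz : ZRel v) :
    ZRel xM := by
  have hev : ∀ w : List ℕ, (∀ i ∈ w, i < 14) → e (ev xM w) = ev v w := by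
    intro w hw
    have := map_ev e.toMonoidHom xM w
    rw [show e (ev xM w) = e.toMonoidHom (ev xM w) from rfl, this]
    exact ev_congr fun i hi => he i (hw i hi)
  have hz14 : ∀ i ∈ zW, i < 14 := fun i hi => lt_trans (Setup.zW_lt i hi) (by norm_num)
  refine ⟨?_, ?_, ?_⟩
  · apply e.injective; rw [map_pow, hev _ hz14, hz.cube, map_one]
  · intro i hi
    apply e.injective
    rw [map_mul, map_mul, map_inv, hev _ hz14, he i (by omega), hz.inv i hi]
  · apply e.injective; rw [map_pow, map_mul, hev _ hz14, he 13 (by norm_num), hz.ord, map_one]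

theorem zrel : ZRel xM := by
  obtain ⟨e, he⟩ := (EquivOf.both fi_facts BFactsInst.bFacts S1704.result).1
  exact zrel_of e he (BaseOf.zrel_conj Lit.gG (NodesDone.nodesIn InstanceFinal.mOrbit S1704.result).zrel)

/-- **Every perfect central extension of the presented group is trivial.** -/
theorem eq_one {E : Type u} [Group E] {π : E →* PM} (h : Ext π) (hperf : commutator E = ⊤) (hU : Univ.{u} xM)
    {c : E} (hc : π c = 1) : c = 1 := by
  obtain ⟨m, hm⟩ := exists_swaps
  exact PMSplit.eq_one_of_swap fi_facts h hperf xM_prel xM_gen hU hm c hc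

end Cfsg.Agent.H862.PMFacts
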