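import Cfsg.Agent.H862.Y555Certs

/-!
# The spider relation implies the relations of type `E7`

`arms`: for involutions `t 0, …, t 15` with the Coxeter relations of `Y555` and the spider relation
`(a b₁ c₁ a b₂ c₂ a b₃ c₃)^10 = 1`, the node `f₁ = t 5` is equal to both words `(a b₁ b₂ b₃ c₁ c₂ d₁)^9` and
`(a b₁ b₃ b₂ c₁ c₃ d₁)^9`; `birel`: all relations of the presentation of the Bimonster.

Idea: (1) the spider relation kills the translations of `3 E6*` in the affine group of `Y222`, and one of them maps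
the root of `E7` orthogonal to `D6 = {d₁, c₁, b₁, a, b₂, b₃}` for one of the two `E7` diagrams to the one for the
other diagram; so the two words are equal, to `g` say, and `g` commutes with all nodes except possibly `e₁`.
(2) So the translations `2 E7` in the affine group of `Y331` are trivial; the longest element of `E8 = Y421` is a
product of such translations, hence trivial, and `g` is the reflection in the highest root of `E8`.
(3) `f₁ g` is a translation of the affine group of `Y521`; these translations form a quotient of `E8 / 2 E8`.  The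
null root gives `c(b₁) c(d₁) c(f₁) c(b₃) = 1` and, exchanging the last two arms, `c(b₁) c(d₁) c(f₁) c(b₂) = 1`.  So
`c(b₂) = c(b₃)`, and the action of `c₂` gives `c(c₂) = 1`.
-/

set_option autoImplicit false
set_option maxRecDepth 1000000

namespace Cfsg.Agent.H862.Y555

open Cfsg.Agent.Bimonster Cfsg.Agent.Bimonster.Tits

variable {G : Type*} [Group G] {t : ℕ → G}

theorem one_of_run (h : CoxRel 16 t) {m w : List ℕ} {k : ℕ} (hc : run (rules 16) m 0 w = some (k, [])) :
    ev t w = 1 := by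
  rw [eq_of_run h.valid hc, one_pow]

theorem ev_rev (h : CoxRel 16 t) {w : List ℕ} (hw : ∀ i ∈ w, i < 16) : ev t w.reverse = (ev t w)⁻¹ :=
  ev_reverse (sq_of_lt h hw)

theorem ev_pal (h : CoxRel 16 t) {w : List ℕ} (hw : ∀ i ∈ w, i < 16) (hp : w.reverse = w) :
    (ev t w)⁻¹ = ev t w := by
  rw [← ev_rev h hw, hp]

theorem comm_of {w : List ℕ} {j : ℕ} (h : CoxRel 16 t) (hj : j < 16)
    (hw : ∀ i ∈ w, i < 16 ∧ adjB j i = false) : t j * ev t w = ev t w * t j := by
  induction w with
  | nil => simp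
  | cons i w ih =>
    obtain ⟨h1, h2⟩ := hw i (by simp)
    rw [ev_cons, ← mul_assoc, h.cm j hj i h1 h2, mul_assoc, ih fun k hk => hw k (by simp [hk]), mul_assoc]

/-- the translation by `b2 + 2 c2 - b3 - 2 c3` is trivial -/
theorem ev_tW (h : CoxRel 16 t) (hs : ev t spW ^ 10 = 1) : ev t tW = 1 := by
  have h1 := one_of_run h cA
  have e1 : ev t (tg1 ++ rep 10 spW ++ tg1.reverse) = 1 := by
    rw [ev_append, ev_append, ev_rep, hs, mul_one, ev_rev h (by decide), mul_inv_cancel]
  have e2 : ev t (tg2 ++ rep 10 spW ++ tg2.reverse) = 1 := by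
    rw [ev_append, ev_append, ev_rep, hs, mul_one, ev_rev h (by decide), mul_inv_cancel]
  rw [ev_append, ev_append, e1, e2, one_mul, one_mul, ev_rev h (by decide)] at h1
  exact inv_eq_one.mp h1

/-- the two words of type `E7` are equal -/
theorem fab (h : CoxRel 16 t) (hs : ev t spW ^ 10 = 1) : ev t f1a ^ 9 = ev t f1b ^ 9 := by
  have h1 := one_of_run h cB
  have hp : (ev t s3W)⁻¹ = ev t s3W := ev_pal h (by decide) (by decide)
  have hpp : ev t s3W * ev t s3W = 1 := by nth_rewrite 1 [← hp]; exact inv_mul_cancel _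
  have hr : ev t (rep 9 f1b).reverse = (ev t f1b ^ 9)⁻¹ := by rw [ev_rev h (by decide), ev_rep]
  rw [ev_append, ev_append, ev_append (w := s3W ++ tW.reverse ++ s3W), ev_append (w := s3W ++ tW.reverse),
    ev_append (w := s3W), ev_rev h (w := tW) (by decide), ev_tW h hs, inv_one, mul_one, mul_one, hpp,
    mul_one, ev_rep, hr] at h1
  exact mul_inv_eq_one.mp h1

theorem ev_kW (h : CoxRel 16 t) (hs : ev t spW ^ 10 = 1) : ev t kW = 1 := by
  have e : kW = rep 9 f1a ++ [8] ++ (rep 9 f1a).reverse ++ [8] := by decide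
  have hc : t 8 * ev t f1b = ev t f1b * t 8 := comm_of h (by norm_num) (by decide)
  have hc' : Commute (t 8) (ev t f1b ^ 9) := Commute.pow_right hc 9
  rw [e, ev_append, ev_append, ev_append, ev_rev h (w := rep 9 f1a) (by decide), ev_rep, fab h hs, ev_cons,
    ev_nil, mul_one, ← hc'.eq, mul_inv_cancel_right]
  exact h.sq 8 (by norm_num)

theorem ev_conj (h : CoxRel 16 t) {u k : List ℕ} (hu : ∀ i ∈ u, i < 16) (hk : ev t k = 1) :
    ev t (u ++ k ++ u.reverse) = 1 := by
  rw [ev_append, ev_append, hk, mul_one, ev_rev h hu, mul_inv_cancel]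

theorem ev_kWr (h : CoxRel 16 t) (hs : ev t spW ^ 10 = 1) : ev t kW.reverse = 1 := by
  rw [ev_rev h (by decide), ev_kW h hs, inv_one]

/-- the steps: two reflections are equal -/
theorem step_eq (h : CoxRel 16 t) {p b c : List ℕ} (h1 : ev t (p ++ b ++ c.reverse) = 1)
    (hc : ∀ i ∈ c, i < 16) (hc1 : ev t c = 1) (hb : ∀ i ∈ b, i < 16) (hp : b.reverse = b) :
    ev t p = ev t b := by
  rw [ev_append, ev_append, ev_rev h hc, hc1, inv_one, mul_one] at h1
  rw [← ev_pal h hb hp]
  exact eq_inv_of_mul_eq_one_left h1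

theorem ev_pW1 (h : CoxRel 16 t) (hs : ev t spW ^ 10 = 1) : ev t pW1 = 1 := by
  have hk := ev_kW h hs
  have a0 := step_eq h (one_of_run h cS0) (by decide) (ev_conj h (by decide) hk) (by decide) (by decide)
  have a1 := step_eq h (one_of_run h cS1) (by decide) (ev_conj h (by decide) hk) (by decide) (by decide)
  have a2 := step_eq h (one_of_run h cS2) (by decide) (ev_conj h (by decide) hk) (by decide) (by decide)
  have a3 := step_eq h (one_of_run h cS3) (by decide) (ev_conj h (by decide) hk) (by decide) (by decide)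
  have h6 := one_of_run h cD6
  rw [ev_append, ev_rev h (by decide), ev_conj h (by decide) (ev_kWr h hs), inv_one, mul_one] at h6
  rw [← h6]
  unfold pW1 pW2
  simp only [ev_append, a0, a1, a2, a3]

/-- the longest element of `E8` is trivial -/
theorem rho_mul (h : CoxRel 16 t) (hs : ev t spW ^ 10 = 1) : ev t rhoW * ev t f1a ^ 9 = 1 := by
  have h1 := one_of_run h cD5
  rwa [ev_append, ev_append, ev_rev h (w := pW1) (by decide), ev_pW1 h hs, inv_one, mul_one, ev_rep] at h1

theorem rho_eq (h : CoxRel 16 t) (hs : ev t spW ^ 10 = 1) : ev t rhoW = ev t f1a ^ 9 := by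
  have h1 := eq_inv_of_mul_eq_one_left (rho_mul h hs)
  have h2 : (ev t rhoW)⁻¹ = ev t rhoW := ev_pal h (by decide) (by decide)
  rw [h1, inv_inv] at h2
  rw [h1, ← h2]

/-- the translation attached to `f₁` -/
def cc (t : ℕ → G) : G := t 5 * ev t f1a ^ 9

theorem ev_cxW (h : CoxRel 16 t) (hs : ev t spW ^ 10 = 1) {p : List ℕ} (hp : ∀ i ∈ p, i < 16) :
    ev t (cxW p) = ev t p * cc t * (ev t p)⁻¹ := by
  unfold cxW cc
  rw [ev_append, ev_append, ev_cons, rho_eq h hs, ev_rev h hp]

/-- the relation of the null root -/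
theorem null (h : CoxRel 16 t) (hs : ev t spW ^ 10 = 1) :
    (ev t q1 * cc t * (ev t q1)⁻¹) * (ev t q3 * cc t * (ev t q3)⁻¹) * cc t *
      (ev t q11 * cc t * (ev t q11)⁻¹) = 1 := by
  have hT := one_of_run h cT
  have hz : ev t (rhoW ++ rep 9 f1a) = 1 := by rw [ev_append, ev_rep]; exact rho_mul h hs
  rw [ev_append, ev_append, ev_conj h (by decide) hz, ev_rev h (w := rhoW ++ rep 9 f1a) (by decide), hz,
    inv_one, mul_one, one_mul, ev_rev h (w := rR) (by decide)] at hT
  have hR : ev t rR = 1 := inv_eq_one.mp hT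
  have h1 := one_of_run h cR
  rw [ev_append, ev_rev h (w := rR) (by decide), hR, inv_one, mul_one, ev_append, ev_append, ev_append,
    ev_cxW h hs (by decide), ev_cxW h hs (by decide), ev_cxW h hs (by decide), ev_cxW h hs (by decide),
    ev_nil, inv_one, mul_one, one_mul] at h1
  exact h1

/-- exchange of the last two arms -/
def sw (i : ℕ) : ℕ := if i ≤ 5 then i else if i ≤ 10 then i + 5 else i - 5

theorem sw_cox (h : CoxRel 16 t) : CoxRel 16 (fun i => t (sw i)) := by
  have h1 : ∀ i < 16, sw i < 16 := by decide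
  have h2 : ∀ i < 16, ∀ j < 16, adjB (sw i) (sw j) = adjB i j := by decide
  refine ⟨fun i hi => h.sq _ (h1 i hi), fun i hi j hj hij => h.cm _ (h1 i hi) _ (h1 j hj) ?_,
    fun i hi j hj hij => h.br _ (h1 i hi) _ (h1 j hj) ?_⟩
  · rw [h2 i hi j hj]; exact hij
  · rw [h2 i hi j hj]; exact hij

theorem ev_comp (f : ℕ → ℕ) (w : List ℕ) : ev (fun i => t (f i)) w = ev t (w.map f) := by
  induction w with
  | nil => simp
  | cons i w ih => rw [List.map_cons, ev_cons, ev_cons, ih]

theorem sw_spider (h : CoxRel 16 t) (hs : ev t spW ^ 10 = 1) : ev (fun i => t (sw i)) spW ^ 10 = 1 := by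
  rw [ev_comp, show spW.map sw = spX by decide]
  have h1 := one_of_run h cX
  have e1 : ev t (rep 10 spW) = 1 := by rw [ev_rep, hs]
  rw [ev_append, ev_conj h (by decide) e1, one_mul, ev_rep] at h1
  exact h1

theorem cc_sw (h : CoxRel 16 t) (hs : ev t spW ^ 10 = 1) : cc (fun i => t (sw i)) = cc t := by
  unfold cc
  rw [ev_comp, show f1a.map sw = f1b by decide, fab h hs]
  rfl

theorem cc_eq_one (h : CoxRel 16 t) (hs : ev t spW ^ 10 = 1) : cc t = 1 := by
  have h1 := null h hs
  have h2 := null (sw_cox h) (sw_spider h hs)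
  have f1 : ev (fun i => t (sw i)) q1 = ev t q1 := by rw [ev_comp sw q1, show q1.map sw = q1 by decide]
  have f3 : ev (fun i => t (sw i)) q3 = ev t q3 := by rw [ev_comp sw q3, show q3.map sw = q3 by decide]
  have f11 : ev (fun i => t (sw i)) q11 = ev t q6 := by rw [ev_comp sw q11, show q11.map sw = q6 by decide]
  rw [cc_sw h hs, f1, f3, f11] at h2
  have h3 : ev t q11 * cc t * (ev t q11)⁻¹ = ev t q6 * cc t * (ev t q6)⁻¹ :=
    mul_left_cancel (h1.trans h2.symm)
  have h4 := one_of_run h cE4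
  have h5 := one_of_run h cE5
  rw [ev_append, ev_append, ev_append, ev_append, ev_rev h (w := cxW q7) (by decide),
    ev_rev h (w := cxW q6) (by decide), ev_cons, ev_nil, mul_one, ev_cxW h hs (p := q6) (by decide),
    ev_cxW h hs (p := q7) (by decide)] at h4
  rw [ev_append, ev_append, ev_append, ev_rev h (w := cxW q11) (by decide), ev_cons, ev_nil, mul_one,
    ev_cxW h hs (p := q11) (by decide), h3] at h5
  rw [mul_inv_eq_one.mp h5] at h4
  have h6 : ev t q7 * cc t * (ev t q7)⁻¹ = 1 := by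
    generalize ev t q6 * cc t * (ev t q6)⁻¹ = u at h4
    generalize ev t q7 * cc t * (ev t q7)⁻¹ = v at h4 ⊢
    have h7 : u * v⁻¹ = u := mul_inv_eq_one.mp h4
    have h8 : v⁻¹ = 1 := by
      have := congrArg (fun x => u⁻¹ * x) h7
      simpa using this
    exact inv_eq_one.mp h8
  have h9 := congrArg (fun x => (ev t q7)⁻¹ * x * ev t q7) h6
  simpa [mul_assoc] using h9

/-- **The spider relation implies the two relations for `f₁`.** -/
theorem arms (h : CoxRel 16 t) (hs : ev t spW ^ 10 = 1) : t 5 = ev t f1a ^ 9 ∧ t 5 = ev t f1b ^ 9 := by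
  have h1 := cc_eq_one h hs
  unfold cc at h1
  have h2 : (ev t f1a ^ 9)⁻¹ = ev t f1a ^ 9 := by
    rw [← rho_eq h hs]
    exact ev_pal h (by decide) (by decide)
  have h3 : t 5 = ev t f1a ^ 9 := by rw [← h2]; exact eq_inv_of_mul_eq_one_left h1
  exact ⟨h3, by rw [← fab h hs]; exact h3⟩

/-- rotation of the arms -/
def ro (i : ℕ) : ℕ := if i = 0 then 0 else if i ≤ 10 then i + 5 else i - 10

theorem ro_cox (h : CoxRel 16 t) : CoxRel 16 (fun i => t (ro i)) := by
  have h1 : ∀ i < 16, ro i < 16 := by decide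
  have h2 : ∀ i < 16, ∀ j < 16, adjB (ro i) (ro j) = adjB i j := by decide
  refine ⟨fun i hi => h.sq _ (h1 i hi), fun i hi j hj hij => h.cm _ (h1 i hi) _ (h1 j hj) ?_,
    fun i hi j hj hij => h.br _ (h1 i hi) _ (h1 j hj) ?_⟩
  · rw [h2 i hi j hj]; exact hij
  · rw [h2 i hi j hj]; exact hij

theorem ro_spider (hs : ev t spW ^ 10 = 1) : ev (fun i => t (ro i)) spW ^ 10 = 1 := by
  rw [ev_comp, show spW.map ro = [0, 6, 7, 0, 11, 12] ++ [0, 1, 2] by decide, ev_append]
  have e1 : ev t spW = ev t [0, 1, 2] * ev t [0, 6, 7, 0, 11, 12] := by rw [← ev_append]; rfl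
  rw [e1] at hs
  have e2 : ev t [0, 6, 7, 0, 11, 12] * ev t [0, 1, 2] =
      (ev t [0, 1, 2])⁻¹ * (ev t [0, 1, 2] * ev t [0, 6, 7, 0, 11, 12]) * ((ev t [0, 1, 2])⁻¹)⁻¹ := by group
  rw [e2, conj_pow, hs, mul_one, mul_inv_cancel]

/-- **The spider relation implies all relations of the presentation of the Bimonster.** -/
theorem birel (h : CoxRel 16 t) (hs : ev t spW ^ 10 = 1) : BiRel t := by
  obtain ⟨a1, a2⟩ := arms h hs
  obtain ⟨b1, b2⟩ := arms (ro_cox h) (ro_spider hs)
  obtain ⟨c1, c2⟩ := arms (ro_cox (ro_cox h)) (ro_spider (ro_spider hs))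
  rw [ev_comp] at b1 b2
  rw [ev_comp, ev_comp] at c1 c2
  refine ⟨h, hs, a1, a2, b2, b1, c1, c2⟩

end Cfsg.Agent.H862.Y555
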